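import Mathlib
import Cfsg.Prelude.Def_E6
import Cfsg.Agent.Eq.Def_E6

/-!
Cubic forms given by monomial lists: polarisation, adjoint and invariance.
-/

set_option autoImplicit false
set_option linter.unusedSectionVars false

namespace CfsgLib.ChevE6Cubic

open Cfsg.Lie
open scoped Matrix

variable {ι : Type} [DecidableEq ι] [Fintype ι] {F : Type*} [Field F]

/-- Value of a list of cubic monomials. -/
def cval (L : List (ℤ × ι × ι × ι)) (v : ι → F) : F :=
  (L.map fun m => (m.1 : F) * (v m.2.1 * v m.2.2.1 * v m.2.2.2)).sum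

/-- The trilinear polarisation. -/
def ctri (L : List (ℤ × ι × ι × ι)) (u v w : ι → F) : F :=
  (L.map fun m => (m.1 : F) *
    (u m.2.1 * v m.2.2.1 * w m.2.2.2 + u m.2.1 * w m.2.2.1 * v m.2.2.2 +
      v m.2.1 * u m.2.2.1 * w m.2.2.2 + v m.2.1 * w m.2.2.1 * u m.2.2.2 +
      w m.2.1 * u m.2.2.1 * v m.2.2.2 + w m.2.1 * v m.2.2.1 * u m.2.2.2)).sum

/-- The differential at `v` in the direction `w`. -/
def cdiff (L : List (ℤ × ι × ι × ι)) (v w : ι → F) : F :=
  (L.map fun m => (m.1 : F) *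
    (w m.2.1 * v m.2.2.1 * v m.2.2.2 + v m.2.1 * w m.2.2.1 * v m.2.2.2 +
      v m.2.1 * v m.2.2.1 * w m.2.2.2)).sum

theorem cval_tri (L : List (ℤ × ι × ι × ι)) (u v w : ι → F) :
    ctri L u v w = cval L (u + v + w) - cval L (u + v) - cval L (u + w) - cval L (v + w) +
      cval L u + cval L v + cval L w := by
  induction L with
  | nil => simp [ctri, cval]
  | cons m L ih =>
    simp only [ctri, cval, List.map_cons, List.sum_cons, Pi.add_apply] at ih ⊢
    rw [ih]
    ring

theorem cval_line (L : List (ℤ × ι × ι × ι)) (v w : ι → F) (t : F) :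
    cval L (v + t • w) =
      cval L v + t * cdiff L v w + t ^ 2 * cdiff L w v + t ^ 3 * cval L w := by
  induction L with
  | nil => simp [cdiff, cval]
  | cons m L ih =>
    simp only [cdiff, cval, List.map_cons, List.sum_cons, Pi.add_apply, Pi.smul_apply,
      smul_eq_mul] at ih ⊢
    rw [ih]
    ring

theorem ctri_smul (L : List (ℤ × ι × ι × ι)) (a b c : F) (u v w : ι → F) :
    ctri L (a • u) (b • v) (c • w) = a * b * c * ctri L u v w := by
  induction L with
  | nil => simp [ctri]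
  | cons m L ih =>
    simp only [ctri, List.map_cons, List.sum_cons, Pi.smul_apply, smul_eq_mul] at ih ⊢
    rw [ih]
    ring

section Invariant

variable {L : List (ℤ × ι × ι × ι)} {g : GL ι F}
  (hg : ∀ v : ι → F, cval L ((g : Matrix ι ι F) *ᵥ v) = cval L v)
include hg

theorem ctri_inv (u v w : ι → F) :
    ctri L ((g : Matrix ι ι F) *ᵥ u) ((g : Matrix ι ι F) *ᵥ v) ((g : Matrix ι ι F) *ᵥ w) =
      ctri L u v w := by
  simp only [cval_tri, ← Matrix.mulVec_add, hg]

theorem cdiff_inv {a : F} (ha0 : a ≠ 0) (ha1 : a ≠ 1) (v w : ι → F) :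
    cdiff L ((g : Matrix ι ι F) *ᵥ v) ((g : Matrix ι ι F) *ᵥ w) = cdiff L v w := by
  have h : ∀ t : F, cval L ((g : Matrix ι ι F) *ᵥ v + t • (g : Matrix ι ι F) *ᵥ w) =
      cval L (v + t • w) := fun t => by
    rw [← hg (v + t • w), Matrix.mulVec_add, Matrix.mulVec_smul]
  have h1 := h 1
  have h2 := h a
  rw [cval_line, cval_line, hg, hg] at h1 h2
  have hne : a * (1 - a) ≠ 0 := mul_ne_zero ha0 (sub_ne_zero.2 (Ne.symm ha1))
  apply mul_left_cancel₀ hne
  linear_combination h2 - a ^ 2 * h1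

end Invariant

/-- Contributions of the basis pair `(j, f)` to the polarisation. -/
def triC (L : List (ℤ × ι × ι × ι)) (j f : ι) : List (ℤ × ι) :=
  L.flatMap fun m =>
    (if m.2.1 = j ∧ m.2.2.2 = f then [(m.1, m.2.2.1)] else []) ++
    (if m.2.1 = j ∧ m.2.2.1 = f then [(m.1, m.2.2.2)] else []) ++
    (if m.2.2.1 = j ∧ m.2.2.2 = f then [(m.1, m.2.1)] else []) ++
    (if m.2.2.2 = j ∧ m.2.2.1 = f then [(m.1, m.2.1)] else []) ++
    (if m.2.2.1 = j ∧ m.2.1 = f then [(m.1, m.2.2.2)] else []) ++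
    (if m.2.2.2 = j ∧ m.2.1 = f then [(m.1, m.2.2.1)] else [])

/-- Contributions of the basis vector `j` to the polarisation. -/
def triJ (L : List (ℤ × ι × ι × ι)) (j : ι) : List (ℤ × ι × ι) :=
  L.flatMap fun m =>
    (if m.2.1 = j then [(m.1, m.2.2.1, m.2.2.2), (m.1, m.2.2.2, m.2.2.1)] else []) ++
    (if m.2.2.1 = j then [(m.1, m.2.1, m.2.2.2), (m.1, m.2.2.2, m.2.1)] else []) ++
    (if m.2.2.2 = j then [(m.1, m.2.1, m.2.2.1), (m.1, m.2.2.1, m.2.1)] else [])

/-- Contributions of the direction `f` to the differential. -/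
def diffC (L : List (ℤ × ι × ι × ι)) (f : ι) : List (ℤ × ι × ι) :=
  L.flatMap fun m =>
    (if m.2.1 = f then [(m.1, m.2.2.1, m.2.2.2)] else []) ++
    (if m.2.2.1 = f then [(m.1, m.2.1, m.2.2.2)] else []) ++
    (if m.2.2.2 = f then [(m.1, m.2.1, m.2.2.1)] else [])

theorem ctri_single (L : List (ℤ × ι × ι × ι)) (j f : ι) (v : ι → F) :
    ctri L (Pi.single j 1) v (Pi.single f 1) =
      ((triC L j f).map fun q => (q.1 : F) * v q.2).sum := by
  induction L with
  | nil => simp [ctri, triC]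
  | cons m L ih =>
    obtain ⟨c, a, b, d⟩ := m
    simp only [ctri, triC, List.map_cons, List.sum_cons, List.flatMap_cons, List.map_append,
      List.sum_append] at ih ⊢
    rw [ih]
    congr 1
    simp only [Pi.single_apply, ite_and]
    split_ifs <;> simp <;> ring

theorem ctri_singleJ (L : List (ℤ × ι × ι × ι)) (j : ι) (v w : ι → F) :
    ctri L (Pi.single j 1) v w = ((triJ L j).map fun q => (q.1 : F) * (v q.2.1 * w q.2.2)).sum := by
  induction L with
  | nil => simp [ctri, triJ]
  | cons m L ih =>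
    obtain ⟨c, a, b, d⟩ := m
    simp only [ctri, triJ, List.map_cons, List.sum_cons, List.flatMap_cons, List.map_append,
      List.sum_append] at ih ⊢
    rw [ih]
    congr 1
    simp only [Pi.single_apply]
    split_ifs <;> simp <;> ring

theorem cdiff_single (L : List (ℤ × ι × ι × ι)) (f : ι) (v : ι → F) :
    cdiff L v (Pi.single f 1) = ((diffC L f).map fun q => (q.1 : F) * (v q.2.1 * v q.2.2)).sum := by
  induction L with
  | nil => simp [cdiff, diffC]
  | cons m L ih =>
    obtain ⟨c, a, b, d⟩ := m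
    simp only [cdiff, diffC, List.map_cons, List.sum_cons, List.flatMap_cons, List.map_append,
      List.sum_append] at ih ⊢
    rw [ih]
    congr 1
    simp only [Pi.single_apply]
    split_ifs <;> simp <;> ring

/-- The monomials have three different variables. -/
def sqfreeB (L : List (ℤ × ι × ι × ι)) : Bool :=
  L.all fun m => decide (m.2.1 ≠ m.2.2.1) && decide (m.2.1 ≠ m.2.2.2) &&
    decide (m.2.2.1 ≠ m.2.2.2)

theorem cdiff_basis {L : List (ℤ × ι × ι × ι)} (h : sqfreeB L = true) (c : ι) (x : F)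
    (w : ι → F) : cdiff L (Pi.single c x) w = 0 := by
  refine List.sum_eq_zero fun y hy => ?_
  obtain ⟨⟨k, a, b, d⟩, hm, rfl⟩ := List.mem_map.1 hy
  simp only [sqfreeB, List.all_eq_true, Bool.and_eq_true, decide_eq_true_eq] at h
  obtain ⟨⟨h1, h2⟩, h3⟩ := h _ hm
  simp only [Pi.single_apply]
  split_ifs <;> simp_all

end CfsgLib.ChevE6Cubic
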