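import Mathlib
import Cfsg.Prelude.Def_ChevE6
import Cfsg.Agent.ChevOrth.Poly
import Cfsg.Agent.ChevE6Cubic.Checks
import Cfsg.Agent.ChevE6Cubic.Form

/-!
The 27-dimensional representation of the Steinberg cover of type E₆ and its torus.
-/

set_option autoImplicit false
set_option linter.unusedSectionVars false
set_option linter.unusedSimpArgs false

namespace CfsgLib.ChevE6Cubic

open Cfsg.Lie CfsgLib.Chevalley CfsgLib.ChevOrth
open scoped Matrix

variable (F : Type*) [Field F]

/-- The matrix of a root vector. -/
noncomputable def matX (r : ℕ) : Matrix I27 I27 F :=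
  ((entX r).map fun e => Matrix.single e.1 e.2.1 (e.2.2 : F)).sum

/-- Root elements in term form. -/
noncomputable def tab : RTab I27 := fun r =>
  ((Finset.univ : Finset I27).toList.map fun a => (a, a, 1, 0)) ++
    (entX r).map fun e => (e.1, e.2.1, e.2.2, 1)

theorem rmat_tab (r : ℕ) (t : F) : rmat tab F r t = 1 + t • matX F r := by
  rw [rmat, tab, List.map_append, List.sum_append, List.map_map, List.map_map,
    Finset.sum_map_toList]
  congr 1
  · ext i j
    rw [Matrix.sum_apply, Matrix.one_apply]
    simp [Matrix.single_apply, ite_and]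
  · rw [matX]
    induction entX r with
    | nil => simp
    | cons e L ih =>
      rw [List.map_cons, List.sum_cons, List.map_cons, List.sum_cons, ih, smul_add,
        Matrix.smul_single]
      simp [mul_comm]

theorem tev_sparseX (r : ℕ) : tev (1 : F) 1 (sparseX r) = matX F r := by
  rw [tev, sparseX, matX, List.map_map]
  exact congrArg List.sum (List.map_congr_left fun e _ => by simp)

theorem tev_tscl (k : ℤ) (A : List (Trm I27)) :
    tev (1 : F) 1 (tscl k A) = (k : F) • tev (1 : F) 1 A := by
  induction A with
  | nil => simp [tscl, tev_nil]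
  | cons x A ih =>
    rw [tscl, List.map_cons, tev_cons, ← tscl, ih, tev_cons, smul_add, Matrix.smul_single]
    simp [mul_assoc]

theorem matX_out {r : ℕ} (h : ¬ r < 72) : matX F r = 0 := by
  rw [matX, entX, List.getD_eq_default _ _ (by simpa [rootsX] using not_lt.1 h)]
  rfl

theorem eq_of_teq {A B : List (Trm I27)} (h : teqB A B = true) :
    tev (1 : F) 1 A = tev (1 : F) 1 B := tev_eq_of_teqB h 1 1

theorem matX_sq {r : ℕ} : matX F r * matX F r = 0 := by
  by_cases hr : r < 72
  · have h := relB_ok
    simp only [relB, List.all_eq_true, List.mem_range, Bool.and_eq_true] at h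
    simpa [tev_tmul, tev_sparseX, tev_nil] using eq_of_teq F (h r hr).1
  · rw [matX_out F hr, mul_zero]

theorem checked : Checked chevE6 tab F := by
  have hadd : ∀ r (t u : F), rmat tab F r t * rmat tab F r u = rmat tab F r (t + u) := by
    intro r t u
    simp only [rmat_tab]
    rw [add_mul, one_mul, mul_add, mul_one, smul_mul_smul_comm, matX_sq, smul_zero, add_smul]
    abel
  refine ⟨fun r hr t => by rw [rmat_tab, matX_out F hr, smul_zero, add_zero],
    fun r _ => hadd r, fun r _ => by rw [rmat_tab, zero_smul, add_zero],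
    fun r hr s hs h1 h2 t u => ?_⟩
  have h := relB_ok
  simp only [relB, List.all_eq_true, List.mem_range, Bool.and_eq_true, Bool.or_eq_true,
    decide_eq_true_eq] at h
  rcases (h r hr).2 s hs with (h' | h') | h'
  · exact absurd h' h1
  · exact absurd h' h2
  simp only [rmat_tab, ChevalleyDatum.commWord]
  unfold pairB at h'
  split at h'
  · rename_i hc
    have e := eq_of_teq F h'
    simp only [tev_tmul, tev_sparseX] at e
    simp only [hc, List.map_nil, List.prod_nil, mul_one, add_mul, mul_add, one_mul,
      smul_mul_smul_comm, e, mul_comm u t]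
    abel
  · rename_i k C hc
    simp only [Bool.and_eq_true, decide_eq_true_eq] at h'
    have e := eq_of_teq F h'.1.1.2
    have e1 := eq_of_teq F h'.1.2
    have e2 := eq_of_teq F h'.2
    simp only [tev_append, tev_tmul, tev_sparseX, tev_tscl, tev_nil] at e e1 e2
    simp only [hc, List.map_cons, List.map_nil, List.prod_cons, List.prod_nil, mul_one, pow_one,
      add_mul, mul_add, one_mul, mul_assoc, Matrix.mul_smul, Matrix.smul_mul, e1, e2, mul_zero,
      smul_zero, add_zero, smul_smul]
    rw [← e]
    simp only [smul_add, smul_smul]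
    rw [show (C : F) * (-t * u) = -(t * u * (C : F)) by ring, neg_smul, mul_comm u t]
    abel
  · exact absurd h' (by simp)

/-- The group generated by the root elements. -/
noncomputable def grp : Subgroup (GL I27 F) := (checked F).coverHom.range

theorem gl_mem (r : ℕ) (t : F) : (checked F).gl r t ∈ grp F := ⟨_, (checked F).coverHom_gen r t⟩

theorem gl_mulVec (r : ℕ) (t : F) (v : I27 → F) (a : I27) :
    (((checked F).gl r t : Matrix I27 I27 F) *ᵥ v) a =
      v a + t * ((entX r).map fun e => if e.1 = a then (e.2.2 : F) * v e.2.1 else 0).sum := by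
  rw [Checked.gl_val, rmat_tab, Matrix.add_mulVec, Matrix.one_mulVec, Matrix.smul_mulVec,
    Pi.add_apply, Pi.smul_apply, smul_eq_mul, matX]
  congr 2
  induction entX r with
  | nil => simp
  | cons e L ih =>
    rw [List.map_cons, List.sum_cons, Matrix.add_mulVec, Pi.add_apply, ih, List.map_cons,
      List.sum_cons]
    congr 1
    by_cases h : e.1 = a
    · subst h; simp [Matrix.single_mulVec, Function.update]
    · simp [Matrix.single_mulVec, Function.update, h, Ne.symm h]

/-! ### Invariance of the form -/

/-- Evaluation of terms. -/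
def cev (t : F) (v : I27 → F) (L : List CTerm) : F :=
  (L.map fun x => (x.1 : F) * t ^ x.2.1 * (v x.2.2.1 * v x.2.2.2.1 * v x.2.2.2.2)).sum

variable {F}

theorem cev_cins (t : F) (v : I27 → F) (x : CTerm) (L : List CTerm) :
    cev F t v (cins x L) = cev F t v (x :: L) := by
  induction L with
  | nil => rfl
  | cons y L ih =>
    unfold cins
    split_ifs with h
    · simp [cev, ← h, add_mul, add_assoc]
    · simp only [cev, List.map_cons, List.sum_cons] at ih ⊢
      rw [ih]; ring

theorem cev_norm (t : F) (v : I27 → F) (L : List CTerm) :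
    cev F t v (L.foldr cins []) = cev F t v L := by
  induction L with
  | nil => rfl
  | cons x L ih =>
    rw [List.foldr_cons, cev_cins]
    simp only [cev, List.map_cons, List.sum_cons] at ih ⊢
    rw [ih]

theorem sort3_eval (v : I27 → F) (a b c : I27) :
    v (sort3 a b c).1 * v (sort3 a b c).2.1 * v (sort3 a b c).2.2 = v a * v b * v c := by
  unfold sort3
  split_ifs <;> ring

theorem imgT_eval (r : ℕ) (t : F) (v : I27 → F) (a : I27) :
    ((imgT r a).map fun x => (x.1 : F) * t ^ x.2.1 * v x.2.2).sum =
      (((checked F).gl r t : Matrix I27 I27 F) *ᵥ v) a := by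
  rw [gl_mulVec, imgT, List.map_cons, List.sum_cons, List.map_map]
  congr 1
  · simp
  · induction entX r with
    | nil => simp
    | cons e L ih =>
      rw [List.filter_cons]
      split_ifs with h
      · rw [List.map_cons, List.sum_cons, ih, List.map_cons, List.sum_cons,
          if_pos (of_decide_eq_true h)]
        simp [mul_comm, mul_left_comm, mul_add]
      · rw [ih, List.map_cons, List.sum_cons, if_neg (by simpa using h), zero_add]

theorem tri_sum {α R : Type*} [CommSemiring R] (L1 L2 L3 : List α) (c : R) (f g h : α → R)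
    (e : α → α → α → R) (he : ∀ x y z, e x y z = c * (f x * g y * h z)) :
    (L1.map fun x => (L2.map fun y => (L3.map fun z => e x y z).sum).sum).sum =
      c * ((L1.map f).sum * (L2.map g).sum * (L3.map h).sum) := by
  simp only [he, List.sum_map_mul_left, List.sum_map_mul_right]

theorem cval_gl (r : ℕ) (t : F) (v : I27 → F) :
    cval monos (((checked F).gl r t : Matrix I27 I27 F) *ᵥ v) = cval monos v := by
  by_cases hr : r < 72
  · have h := invB_ok
    simp only [invB, List.all_eq_true, List.mem_range] at h
    have h0 : cev F t v ((expand r ++ monos.map negTerm).foldr cins []) = 0 :=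
      List.sum_eq_zero fun y hy => by
        obtain ⟨x, hx, rfl⟩ := List.mem_map.1 hy
        simp [of_decide_eq_true (h r hr x hx)]
    rw [cev_norm] at h0
    simp only [cev, List.map_append, List.sum_append, List.map_map] at h0
    have hR : (monos.map fun m => (m.1 : F) * (v m.2.1 * v m.2.2.1 * v m.2.2.2)).sum =
        cval monos v := rfl
    have hneg : (monos.map ((fun x : CTerm =>
        (x.1 : F) * t ^ x.2.1 * (v x.2.2.1 * v x.2.2.2.1 * v x.2.2.2.2)) ∘
        negTerm)).sum = -cval monos v := by
      rw [← hR]
      induction monos with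
      | nil => simp
      | cons m L ih =>
        simp only [List.map_cons, List.sum_cons, Function.comp_apply, negTerm, sort3_eval] at ih ⊢
        rw [ih]
        simp
        ring
    rw [hneg, add_neg_eq_zero] at h0
    rw [← h0, cval, expand]
    induction monos with
    | nil => simp
    | cons m L ih =>
      simp only [List.map_cons, List.sum_cons, List.flatMap_cons, List.map_append,
        List.sum_append, ih]
      congr 1
      rw [← imgT_eval, ← imgT_eval, ← imgT_eval]
      symm
      simp only [List.flatMap_def, List.map_flatten, List.sum_flatten, List.map_map,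
        Function.comp_def, sort3_eval]
      refine tri_sum (R := F) _ _ _ _ _ _ _ _ fun x y z => ?_
      push_cast
      ring
  · rw [Checked.gl_val, rmat_tab, matX_out F hr, smul_zero, add_zero, Matrix.one_mulVec]

set_option maxHeartbeats 1000000 in
theorem cval_eq_cubicT (v : I27 → F) : cval monos v = cubicT v := by
  simp only [cval, monos, cubicT, mat3, Matrix.trace, Matrix.diag, Matrix.mul_apply,
    Fin.sum_univ_three, Matrix.det_fin_three, Matrix.of_apply, List.map_cons, List.map_nil,
    List.sum_cons, List.sum_nil, Int.cast_neg, Int.cast_one]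
  ring

theorem grp_le : grp F ≤ E6univ F := by
  rw [grp, Checked.coverHom_range, Subgroup.closure_le]
  rintro _ ⟨r, -, t, rfl⟩ v
  rw [← cval_eq_cubicT, ← cval_eq_cubicT]
  exact cval_gl r t v

/-! ### The torus -/

/-- The value of the torus element of a root at a coordinate. -/
def tval (r : ℕ) (t : F) (a : I27) : F :=
  if a ∈ (entX r).map (fun e => e.1) then t
  else if a ∈ (entX r).map (fun e => e.2.1) then t⁻¹ else 1

theorem diag_ind (L : List I27) (hL : L.Nodup) :
    (L.map fun a => Matrix.single a a (1 : F)).sum =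
      Matrix.diagonal fun a => if a ∈ L then 1 else 0 := by
  induction L with
  | nil => simp [← Matrix.diagonal_zero]
  | cons a L ih =>
    rw [List.nodup_cons] at hL
    rw [List.map_cons, List.sum_cons, ih hL.2, ← Matrix.diagonal_single, Matrix.diagonal_add]
    congr 1
    funext b
    by_cases hb : b = a
    · subst hb; simp [hL.1]
    · simp [hb]

theorem exists_tor {q : ℕ × ℕ × ℤ × I27} (hq : q ∈ torusD) {t : F} (ht : t ≠ 0) :
    ∃ h ∈ grp F, (h : Matrix I27 I27 F) = Matrix.diagonal (tval q.1 t) := by
  obtain ⟨r, r', σ, a⟩ := q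
  have h := List.all_eq_true.1 torB_ok _ hq
  simp only [torB, Bool.and_eq_true, decide_eq_true_eq] at h
  obtain ⟨⟨⟨⟨⟨⟨c1, c2⟩, c3⟩, c4⟩, c5⟩, c6⟩, hnd⟩ := h
  have e1 := eq_of_teq F c1
  have e2 := eq_of_teq F c2
  have e3 := eq_of_teq F c3
  have e4 := eq_of_teq F c4
  have e5 := eq_of_teq F c5
  have e6 := eq_of_teq F c6
  simp only [tev_tmul, tev_tscl, tev_sparseX, tev_nil] at e1 e2 e3 e4 e5 e6
  set A := matX F r with hA
  set B := (σ : F) • matX F r' with hB
  have hn : ∀ s : F, s ≠ 0 →
      rmat tab F r s * rmat tab F r' ((σ : F) * -s⁻¹) * rmat tab F r s =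
        1 - (A * B + B * A) + s • A - s⁻¹ • B := by
    intro s hs
    simp only [rmat_tab]
    rw [show ((σ : F) * -s⁻¹) • matX F r' = -(s⁻¹ • B) by
      rw [hB, smul_smul, ← neg_smul]; congr 1; ring]
    simp only [← hA, add_mul, mul_add, one_mul, mul_one, neg_mul, mul_neg, Matrix.smul_mul,
      Matrix.mul_smul, e1, e5, smul_zero, add_zero, smul_smul, mul_inv_cancel₀ hs,
      inv_mul_cancel₀ hs, one_smul]
    abel
  set g : GL I27 F := (checked F).gl r t * (checked F).gl r' ((σ : F) * -t⁻¹) * (checked F).gl r t *
    ((checked F).gl r (-1) * (checked F).gl r' ((σ : F) * -(-1 : F)⁻¹) * (checked F).gl r (-1))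
  refine ⟨g, mul_mem (mul_mem (mul_mem (gl_mem F _ _) (gl_mem F _ _)) (gl_mem F _ _))
    (mul_mem (mul_mem (gl_mem F _ _) (gl_mem F _ _)) (gl_mem F _ _)), ?_⟩
  simp only [g, Units.val_mul, Checked.gl_val]
  rw [hn t ht, hn (-1) (neg_ne_zero.2 one_ne_zero)]
  have hP : (1 - (A * B + B * A) + t • A - t⁻¹ • B) * (1 - (A * B + B * A) + (-1 : F) • A -
      (-1 : F)⁻¹ • B) = 1 - (A * B + B * A) + t • (A * B) + t⁻¹ • (B * A) := by
    have a1 : A * B * A = A := e1
    have a2 : B * A * B = B := e2
    have a3 : A * A = 0 := e5
    have a4 : B * B = 0 := e6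
    rw [inv_neg, inv_one, neg_smul, neg_smul, one_smul, one_smul, sub_neg_eq_add]
    have b1 : B * A * A = 0 := by rw [mul_assoc, a3, mul_zero]
    have b2 : A * B * B = 0 := by rw [mul_assoc, a4, mul_zero]
    simp only [add_mul, sub_mul, mul_add, mul_sub, one_mul, mul_one, Matrix.smul_mul,
      Matrix.mul_smul, ← mul_assoc, a1, a2, a3, a4, b1, b2, zero_mul, mul_zero, smul_zero, mul_neg,
      neg_mul, neg_zero, smul_neg]
    abel
  rw [hP, e3, e4]
  have hr1 := (List.nodup_append.1 hnd).1
  have hr2 := (List.nodup_append.1 hnd).2.1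
  have hdis := (List.nodup_append.1 hnd).2.2
  have d1 : tev (1 : F) 1 ((entX r).map fun e => (e.1, e.1, (1 : ℤ), 0, 0)) =
      Matrix.diagonal fun b => if b ∈ (entX r).map (fun e => e.1) then 1 else 0 := by
    rw [← diag_ind _ hr1, tev, List.map_map, List.map_map]
    exact congrArg List.sum (List.map_congr_left fun e _ => by simp)
  have d2 : tev (1 : F) 1 ((entX r).map fun e => (e.2.1, e.2.1, (1 : ℤ), 0, 0)) =
      Matrix.diagonal fun b => if b ∈ (entX r).map (fun e => e.2.1) then 1 else 0 := by
    rw [← diag_ind _ hr2, tev, List.map_map, List.map_map]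
    exact congrArg List.sum (List.map_congr_left fun e _ => by simp)
  rw [d1, d2, ← Matrix.diagonal_one, Matrix.diagonal_add, Matrix.diagonal_sub,
    ← Matrix.diagonal_smul, ← Matrix.diagonal_smul, Matrix.diagonal_add, Matrix.diagonal_add]
  congr 1
  funext b
  simp only [tval, Pi.smul_apply, smul_eq_mul]
  by_cases h1 : b ∈ (entX r).map (fun e => e.1)
  · rw [if_pos h1, if_neg (fun h2 => hdis b h1 b h2 rfl), if_pos h1]; ring
  · by_cases h2 : b ∈ (entX r).map (fun e => e.2.1)
    · rw [if_neg h1, if_pos h2, if_neg h1, if_pos h2]; ring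
    · rw [if_neg h1, if_neg h2, if_neg h1, if_neg h2]; ring

end CfsgLib.ChevE6Cubic
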